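import Cfsg.Agent.Components.PCompInternal

/-!
The extended 2-layer: `L⊔O_{2',2}` is `(L⊔O)T`, the cores `O(C(T))` are conjugate, and they normalise
every 2-component.
-/

set_option autoImplicit false

namespace CfsgLib.Components

open scoped commutatorElement
open Cfsg (IsQuasisimple IsComponent IsPComponent pPrimeCore pCore pLayer layer pPrimePCore extendedTwoLayer)

variable {X : Type*} [Group X]

/-- `O_{p'}(C(A))` inside the ambient group. -/
def centCore (p : ℕ) (A : Subgroup X) : Subgroup X :=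
  (pPrimeCore p ↥(Subgroup.centralizer (A : Set X))).map (Subgroup.centralizer (A : Set X)).subtype

theorem centralizer_map_conj (A : Subgroup X) (g : X) :
    (Subgroup.centralizer (A : Set X)).map (MulAut.conj g).toMonoidHom =
      Subgroup.centralizer ((A.map (MulAut.conj g).toMonoidHom : Subgroup X) : Set X) := by
  ext x
  simp only [Subgroup.mem_map, MulEquiv.coe_toMonoidHom, MulAut.conj_apply, Subgroup.mem_centralizer_iff,
    Subgroup.coe_map, Set.mem_image, SetLike.mem_coe, forall_exists_index, and_imp]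
  constructor
  · rintro ⟨c, hc, rfl⟩ _ a ha rfl
    calc g * a * g⁻¹ * (g * c * g⁻¹) = g * (a * c) * g⁻¹ := by group
      _ = g * c * g⁻¹ * (g * a * g⁻¹) := by rw [hc a ha]; group
  · intro h
    refine ⟨g⁻¹ * x * g, fun a ha => ?_, by group⟩
    calc a * (g⁻¹ * x * g) = g⁻¹ * ((g * a * g⁻¹) * x) * g := by group
      _ = g⁻¹ * x * g * a := by rw [h _ a ha rfl]; group

theorem centCore_map_conj (p : ℕ) (A : Subgroup X) (g : X) :
    (centCore p A).map (MulAut.conj g).toMonoidHom = centCore p (A.map (MulAut.conj g).toMonoidHom) := by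
  set C := Subgroup.centralizer (A : Set X)
  set C' := Subgroup.centralizer ((A.map (MulAut.conj g).toMonoidHom : Subgroup X) : Set X)
  let e : ↥C ≃* ↥C' := (C.equivMapOfInjective (MulAut.conj g).toMonoidHom (MulAut.conj g).injective).trans
    (MulEquiv.subgroupCongr (centralizer_map_conj A g))
  show ((pPrimeCore p ↥C).map C.subtype).map _ = (pPrimeCore p ↥C').map C'.subtype
  rw [← pPrimeCore_map_equiv e p, Subgroup.map_map, Subgroup.map_map]
  rfl

theorem normalizer_le_normalizer_centCore (p : ℕ) (A : Subgroup X) :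
    Subgroup.normalizer (A : Set X) ≤ Subgroup.normalizer (centCore p A : Set X) := by
  intro g hg
  rw [Subgroup.mem_normalizer_iff_map_conj_eq] at hg ⊢
  have := centCore_map_conj p A g
  rw [show (A.map (MulAut.conj g).toMonoidHom) = A from hg] at this
  exact this

variable [Finite X]

theorem pPrimePCore_normal (p : ℕ) : (pPrimePCore p X).Normal :=
  haveI := (inferInstance : (pCore p (X ⧸ pPrimeCore p X)).Normal)
  Subgroup.Normal.comap inferInstance _

variable {p : ℕ} [hp : Fact p.Prime]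

theorem pPrimePCore_le_normalizer_pComponent {K : Subgroup X} (hK : IsPComponent p K) :
    pPrimePCore p X ≤ Subgroup.normalizer (K : Set X) := by
  intro w hw
  refine mem_normalizer_pComponent hK (Subgroup.centralizer_le_normalizer _ ?_)
  refine Subgroup.commutator_eq_bot_iff_le_centralizer.mp ?_ (Subgroup.mem_comap.mp hw)
  rw [Subgroup.commutator_comm]
  exact component_commute_solvable hK.2.1 (inferInstance : (pCore p (X ⧸ pPrimeCore p X)).Normal).isSubnormal
    (haveI := (pCore_isPGroup (G := X ⧸ pPrimeCore p X) p).isNilpotent; inferInstance)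

/-- `L ⊔ O_{p',p} = (L ⊔ O_{p'}) T`. -/
theorem pLayer_sup_eq_sylow (T : Sylow p ↥(pLayer p X ⊔ pPrimePCore p X)) :
    pLayer p X ⊔ pPrimePCore p X ≤ pLayer p X ⊔ pPrimeCore p X ⊔
      (T : Subgroup ↥(pLayer p X ⊔ pPrimePCore p X)).map (pLayer p X ⊔ pPrimePCore p X).subtype := by
  have hLn : (pLayer p X).Normal := pLayer_normal
  set LO := pLayer p X ⊔ pPrimeCore p X with hLO
  have hLOn : LO.Normal := Subgroup.sup_normal _ _
  have hquot : IsPGroup p (↥(pLayer p X ⊔ pPrimePCore p X) ⧸ LO.subgroupOf (pLayer p X ⊔ pPrimePCore p X)) := by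
    intro x
    obtain ⟨⟨m, hm⟩, rfl⟩ := QuotientGroup.mk'_surjective (LO.subgroupOf (pLayer p X ⊔ pPrimePCore p X)) x
    obtain ⟨l, hl, w, hw, rfl⟩ := Subgroup.mem_sup_of_normal_left.mp hm
    obtain ⟨a, ha⟩ := pCore_isPGroup p ⟨_, Subgroup.mem_comap.mp hw⟩
    refine ⟨a, ?_⟩
    rw [← map_pow]
    refine (QuotientGroup.eq_one_iff _).mpr ?_
    show (l * w) ^ p ^ a ∈ LO
    have h1 : ((l * w : X) : X ⧸ LO) = (w : X ⧸ LO) := by
      rw [QuotientGroup.mk_mul, (QuotientGroup.eq_one_iff l).mpr (Subgroup.mem_sup_left hl), one_mul]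
    rw [← QuotientGroup.eq_one_iff (N := LO), QuotientGroup.mk_pow, h1, ← QuotientGroup.mk_pow,
      QuotientGroup.eq_one_iff]
    refine Subgroup.mem_sup_right ((QuotientGroup.eq_one_iff _).mp ?_)
    rw [QuotientGroup.mk_pow]
    exact congrArg Subtype.val ha
  have htop : LO.subgroupOf (pLayer p X ⊔ pPrimePCore p X) ⊔ (T : Subgroup ↥(pLayer p X ⊔ pPrimePCore p X)) = ⊤ := by
    rw [← Subgroup.index_eq_one]
    obtain ⟨k, hk⟩ := IsPGroup.iff_card.mp hquot
    have h1 : (LO.subgroupOf (pLayer p X ⊔ pPrimePCore p X) ⊔ (T : Subgroup ↥(pLayer p X ⊔ pPrimePCore p X))).index ∣ p ^ k := hk ▸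
      (Subgroup.index_eq_card (LO.subgroupOf (pLayer p X ⊔ pPrimePCore p X)) ▸ Subgroup.index_dvd_of_le le_sup_left)
    have h2 : (LO.subgroupOf (pLayer p X ⊔ pPrimePCore p X) ⊔ (T : Subgroup ↥(pLayer p X ⊔ pPrimePCore p X))).index ∣ (T : Subgroup ↥(pLayer p X ⊔ pPrimePCore p X)).index :=
      Subgroup.index_dvd_of_le le_sup_right
    exact Nat.eq_one_of_dvd_coprimes ((hp.out.coprime_iff_not_dvd.mpr T.not_dvd_index).pow_left k) h1 h2
  intro m hm
  have hmem : (⟨m, hm⟩ : ↥(pLayer p X ⊔ pPrimePCore p X)) ∈ LO.subgroupOf (pLayer p X ⊔ pPrimePCore p X) ⊔ (T : Subgroup ↥(pLayer p X ⊔ pPrimePCore p X)) := htop ▸ Subgroup.mem_top _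
  obtain ⟨u, hu, t, ht, hut⟩ := Subgroup.mem_sup_of_normal_left.mp hmem
  have : (u : X) * t = m := congrArg Subtype.val hut
  rw [← this]
  exact mul_mem (Subgroup.mem_sup_left hu) (Subgroup.mem_sup_right ⟨t, ht, rfl⟩)

theorem centCore_le_sup (T T' : Sylow p ↥(pLayer p X ⊔ pPrimePCore p X)) :
    centCore p ((T' : Subgroup ↥(pLayer p X ⊔ pPrimePCore p X)).map (pLayer p X ⊔ pPrimePCore p X).subtype) ≤
      pLayer p X ⊔ pPrimeCore p X ⊔
        centCore p ((T : Subgroup ↥(pLayer p X ⊔ pPrimePCore p X)).map (pLayer p X ⊔ pPrimePCore p X).subtype) := by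
  set LO := pLayer p X ⊔ pPrimeCore p X with hLO
  set TX := (T : Subgroup ↥(pLayer p X ⊔ pPrimePCore p X)).map (pLayer p X ⊔ pPrimePCore p X).subtype with hTX
  obtain ⟨m, hm⟩ := MulAction.exists_smul_eq ↥(pLayer p X ⊔ pPrimePCore p X) T T'
  have hLn : (pLayer p X).Normal := pLayer_normal
  have hLOn : LO.Normal := Subgroup.sup_normal _ _
  have e : ((m • T : Sylow p ↥(pLayer p X ⊔ pPrimePCore p X)) : Subgroup ↥(pLayer p X ⊔ pPrimePCore p X)).map (pLayer p X ⊔ pPrimePCore p X).subtype = TX.map (MulAut.conj (m : X)).toMonoidHom := by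
    ext x
    simp only [hTX, Subgroup.mem_map, Sylow.coe_subgroup_smul, Subgroup.mem_smul_pointwise_iff_exists]
    constructor
    · rintro ⟨_, ⟨w, hw, rfl⟩, rfl⟩
      exact ⟨w, ⟨w, hw, rfl⟩, rfl⟩
    · rintro ⟨_, ⟨w, hw, rfl⟩, rfl⟩
      exact ⟨_, ⟨w, hw, rfl⟩, rfl⟩
  obtain ⟨u, hu, t, ht, hut⟩ := Subgroup.mem_sup_of_normal_left.mp (pLayer_sup_eq_sylow T m.2)
  have ht' : t ∈ Subgroup.normalizer (TX : Set X) := Subgroup.le_normalizer ht
  rw [← hm, e, ← centCore_map_conj, ← hut]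
  rintro _ ⟨d, hd, rfl⟩
  show u * t * d * (u * t)⁻¹ ∈ _
  have hd' : t * d * t⁻¹ ∈ centCore p TX :=
    (Subgroup.mem_normalizer_iff.mp (normalizer_le_normalizer_centCore p TX ht') d).mp hd
  have : u * t * d * (u * t)⁻¹ = u * (t * d * t⁻¹) * u⁻¹ := by group
  rw [this]
  exact mul_mem (mul_mem (Subgroup.mem_sup_left hu) (Subgroup.mem_sup_right hd'))
    (inv_mem (Subgroup.mem_sup_left hu))

/-- `O_{p'}(C(T))` normalises each p-component, for `T` Sylow in `L ⊔ O_{p',p}`. -/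
theorem centCore_le_normalizer_pComponent (T : Sylow p ↥(pLayer p X ⊔ pPrimePCore p X)) {K : Subgroup X}
    (hK : IsPComponent p K) :
    centCore p ((T : Subgroup ↥(pLayer p X ⊔ pPrimePCore p X)).map (pLayer p X ⊔ pPrimePCore p X).subtype) ≤
      Subgroup.normalizer (K : Set X) := by
  set q := QuotientGroup.mk' (pPrimeCore p X) with hq
  set Kb := K.map q with hKb
  have hdvd := component_dvd_card (pPrimeCore_quotient_eq_bot p) hK.2.1
  have hex : ∃ u : ↥Kb, ∃ k : ℕ, u ^ p ^ k = 1 ∧ u ∉ Subgroup.center ↥Kb := by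
    by_contra hne
    simp only [not_exists, not_and, not_not] at hne
    exact quasisimple_center_ne_top hK.2.1.2
      (quasisimple_eq_top_of_pElements hK.2.1.2 hdvd inferInstance hne)
  obtain ⟨⟨_, y, hy, rfl⟩, k, hk, hnc⟩ := hex
  obtain ⟨z, hz, ⟨a, ha⟩, hzy⟩ := exists_pElement_lift (p := p) hy (f := q) (k := k) (congrArg Subtype.val hk)
  have hzM : z ∈ (pLayer p X ⊔ pPrimePCore p X) := Subgroup.mem_sup_left (pComponent_le_pLayer hK hz)
  have hzp : IsPGroup p ↥(Subgroup.zpowers (⟨z, hzM⟩ : ↥(pLayer p X ⊔ pPrimePCore p X))) := by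
    intro w
    obtain ⟨w, n, rfl⟩ := w
    refine ⟨a, Subtype.ext ?_⟩
    show ((⟨z, hzM⟩ : ↥(pLayer p X ⊔ pPrimePCore p X)) ^ n) ^ p ^ a = 1
    rw [← zpow_natCast, ← zpow_mul, mul_comm, zpow_mul, zpow_natCast,
      show (⟨z, hzM⟩ : ↥(pLayer p X ⊔ pPrimePCore p X)) ^ p ^ a = 1 from Subtype.ext ha, one_zpow]
  obtain ⟨Q, hQ⟩ := hzp.exists_le_sylow
  obtain ⟨m, hm⟩ := MulAction.exists_smul_eq ↥(pLayer p X ⊔ pPrimePCore p X) T Q
  obtain ⟨w, hwT, hwz⟩ : ∃ w ∈ (T : Subgroup ↥(pLayer p X ⊔ pPrimePCore p X)), m * w * m⁻¹ = ⟨z, hzM⟩ := by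
    have h1 := hQ (Subgroup.mem_zpowers _)
    rw [← hm, Sylow.coe_subgroup_smul, Subgroup.mem_smul_pointwise_iff_exists] at h1
    obtain ⟨w, hw, hwe⟩ := h1
    exact ⟨w, hw, hwe⟩
  have hwz' : (m : X) * w * (m : X)⁻¹ = z := congrArg Subtype.val hwz
  have hmK : (m : X) ∈ Subgroup.normalizer (K : Set X) :=
    (sup_le (pComponent_normal_in_pLayer hK) (pPrimePCore_le_normalizer_pComponent hK) :
      (pLayer p X ⊔ pPrimePCore p X) ≤ Subgroup.normalizer (K : Set X)) m.2
  have hwK : (w : X) ∈ K := (Subgroup.mem_normalizer_iff.mp hmK _).mpr (hwz'.symm ▸ hz)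
  have hwnc : q (w : X) ∉ Subgroup.centralizer (Kb : Set _) := by
    intro hc
    refine hnc (Subgroup.mem_center_iff.mpr ?_)
    rintro ⟨_, v, hv, rfl⟩
    refine Subtype.ext ?_
    show q v * q y = q y * q v
    rw [← hzy, ← hwz']
    have hv' : (m : X)⁻¹ * v * m ∈ K := (Subgroup.mem_normalizer_iff''.mp hmK v).mp hv
    have h1 := Subgroup.mem_centralizer_iff.mp hc _ ⟨_, hv', rfl⟩
    simp only [map_mul, map_inv] at h1 ⊢
    calc q v * (q m * q w * (q m)⁻¹) = q m * (((q m)⁻¹ * q v * q m) * q w) * (q m)⁻¹ := by group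
      _ = _ := by rw [h1]; group
  intro d hd
  refine mem_normalizer_pComponent hK ?_
  rw [Subgroup.mem_normalizer_iff_map_conj_eq]
  by_contra hne
  have hcomm := components_commute hK.2.1 (isComponent_conj hK.2.1 (q d)) (Ne.symm hne)
  apply hwnc
  rw [Subgroup.commutator_comm] at hcomm
  refine Subgroup.commutator_eq_bot_iff_le_centralizer.mp hcomm ?_
  refine ⟨q w, ⟨_, hwK, rfl⟩, ?_⟩
  have hd' : (w : X) * d = d * w :=
    Subgroup.mem_centralizer_iff.mp (Subgroup.map_subtype_le _ hd) _ ⟨w, hwT, rfl⟩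
  show q d * q w * (q d)⁻¹ = q w
  rw [← map_mul, ← hd', map_mul]; group

end CfsgLib.Components
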