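import Mathlib.Tactic
import Cfsg.Agent.Components.MaximalPair

/-! Bender's theorem for primitive pairs: the maximality used for a pair of maximal subgroups is only the
equality of the relevant normalizers with the intersection. -/

set_option autoImplicit false

namespace CfsgLib.Components.PrimitivePair

open Cfsg CfsgLib.Components CfsgLib.Components.MaximalPair

variable {G : Type*} [Group G] [Finite G]

theorem pCoreIn_le_pCoreIn (q : ℕ) [Fact q.Prime] {M N : Subgroup G}
    (hP : ∀ A : Subgroup G, A ≠ ⊥ → A ≤ M ⊓ N → M ≤ Subgroup.normalizer (A : Set G) →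
      N ⊓ Subgroup.normalizer (A : Set G) = M ⊓ N)
    (hEN : layer ↥N = ⊥) (h1 : fIn M ≤ N) (h2 : fIn N ≤ M) (hR : rIn q M ≠ ⊥) :
    pCoreIn q M ≤ pCoreIn q N := by
  have hRM : rIn q M ≤ M := Subgroup.map_subtype_le _
  have hRN : rIn q M ≤ N := (rIn_le_fIn q M).trans h1
  set C := N ⊓ Subgroup.centralizer (pCoreIn q N : Set G) with hC
  set Y := N ⊓ Subgroup.centralizer (rIn q N : Set G) with hY
  have hnC : N ≤ Subgroup.normalizer (C : Set G) := (le_inf Subgroup.le_normalizer ((le_normalizer_pCoreIn q N).trans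
    (normalizer_le_normalizer_centralizer _))).trans (normalizer_inf_le _ _)
  have hnY : N ≤ Subgroup.normalizer (Y : Set G) := (le_inf Subgroup.le_normalizer ((le_normalizer_rIn q N).trans
    (normalizer_le_normalizer_centralizer _))).trans (normalizer_inf_le _ _)
  have hRC : rIn q M ≤ C := le_inf hRN (Subgroup.commutator_eq_bot_iff_le_centralizer.mp
    (by rw [Subgroup.commutator_comm]; exact pCoreIn_commutes_rIn q h2 h1))
  have hQY : pCoreIn q M ≤ Y := le_inf ((pCoreIn_le_fIn q M).trans h1)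
    (Subgroup.commutator_eq_bot_iff_le_centralizer.mp (pCoreIn_commutes_rIn q h1 h2))
  have hgen : pElems q Y ≤ Subgroup.centralizer (rIn q M : Set G) := by
    refine (Subgroup.closure_le _).mpr ?_
    rintro y ⟨hy, k, hk⟩
    rw [SetLike.mem_coe, Subgroup.mem_centralizer_iff]
    intro x hx
    obtain ⟨z, hzdef⟩ : ∃ z, z = y * x * y⁻¹ * x⁻¹ := ⟨_, rfl⟩
    have hxC := hRC hx
    have hzC : z ∈ C := hzdef ▸ C.mul_mem ((Subgroup.mem_normalizer_iff.mp (hnC hy.1) x).mp hxC) (C.inv_mem hxC)
    have hzY : z ∈ Y := by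
      rw [hzdef, show y * x * y⁻¹ * x⁻¹ = y * (x * y⁻¹ * x⁻¹) by group]
      exact Y.mul_mem hy ((Subgroup.mem_normalizer_iff.mp (hnY (hRN hx)) y⁻¹).mp (Y.inv_mem hy))
    have hzF : z ∈ fIn N := by
      refine mem_fIn_of_centralizes hEN hzC.1 ?_
      rw [fIn_eq_sup q N]
      have : pCoreIn q N ⊔ rIn q N ≤ Subgroup.centralizer ({z} : Set G) :=
        sup_le (fun a ha => Subgroup.mem_centralizer_singleton_iff.mpr (Subgroup.mem_centralizer_iff.mp hzC.2 a ha))
          fun a ha => Subgroup.mem_centralizer_singleton_iff.mpr (Subgroup.mem_centralizer_iff.mp hzY.2 a ha)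
      exact Subgroup.mem_centralizer_iff.mpr fun a ha => Subgroup.mem_centralizer_singleton_iff.mp (this ha)
    rw [fIn_eq_sup q N] at hzF
    have hzF' : z ∈ ((pCoreIn q N ⊔ rIn q N : Subgroup G) : Set G) := hzF
    rw [Subgroup.coe_mul_of_left_le_normalizer_right _ _
      ((pCoreIn_le q N).trans (le_normalizer_rIn q N))] at hzF'
    obtain ⟨a, ha, b, hb, hab⟩ := Set.mem_mul.mp hzF'
    have hax : Commute a x := Subgroup.mem_centralizer_iff.mp hxC.2 a ha
    have hbY : y * b = b * y := (Subgroup.mem_centralizer_iff.mp hy.2 b hb).symm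
    -- the `q`-part of `z` is trivial
    haveI := pCore_characteristic (G := ↥N) q
    haveI := fittingSubgroup_normal (G := ↥N)
    haveI := pPrimeCore_characteristic (G := ↥N) q
    let f := QuotientGroup.mk' (fittingSubgroup ↥N ⊓ pPrimeCore q ↥N)
    let x' : ↥N := ⟨x, hRN hx⟩
    let y' : ↥N := ⟨y, hy.1⟩
    obtain ⟨a', ha', rfl⟩ := ha
    obtain ⟨b', hb', rfl⟩ := hb
    have he : y' * x' * y'⁻¹ = a' * (b' * x') := Subtype.ext (by
      show y * x * y⁻¹ = (a' : G) * ((b' : G) * x)
      rw [← mul_assoc, show (a' : G) * (b' : G) = z from hab, hzdef]; group)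
    have hfb : f b' = 1 := (QuotientGroup.eq_one_iff _).mpr hb'
    have hfe : f y' * f x' * (f y')⁻¹ = f a' * f x' := by
      rw [← map_inv, ← map_mul, ← map_mul, he, map_mul, map_mul, hfb, one_mul]
    have hpow : f a' ^ orderOf x = 1 := by
      have hc : Commute (f a') (f x') := (show Commute a' x' from Subtype.ext hax).map f
      have hx1 : f x' ^ orderOf x = 1 := by
        rw [← map_pow, show x' ^ orderOf x = 1 from Subtype.ext (pow_orderOf_eq_one x), map_one]
      have := congrArg (· ^ orderOf x) hfe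
      simp only [conj_pow, hc.mul_pow, hx1, mul_one, mul_inv_cancel] at this
      exact this.symm
    have ha1 : a' = 1 := by
      rw [← map_pow, QuotientGroup.mk'_apply, QuotientGroup.eq_one_iff] at hpow
      have hdis : Disjoint (pCore q ↥N) (fittingSubgroup ↥N ⊓ pPrimeCore q ↥N) := by
        rw [disjoint_iff]
        refine Subgroup.inf_eq_bot_of_coprime ?_
        obtain ⟨j, hj⟩ := IsPGroup.iff_card.mp (pCore_isPGroup (G := ↥N) q)
        rw [hj]
        exact Nat.Coprime.pow_left _ ((Nat.Coprime.coprime_dvd_left (Subgroup.card_dvd_of_le inf_le_right)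
          (pPrimeCore_coprime (G := ↥N) q)).symm)
      have h0 : a' ^ orderOf x = 1 := Subgroup.disjoint_def.mp hdis (Subgroup.pow_mem _ ha' _) hpow
      obtain ⟨j, hj⟩ := pCore_isPGroup (G := ↥N) q ⟨a', ha'⟩
      have hj' : a' ^ q ^ j = 1 := congrArg Subtype.val hj
      have hcop : (orderOf x).Coprime (q ^ j) :=
        Nat.Coprime.pow_right _ (Nat.Coprime.coprime_dvd_left (Subgroup.orderOf_dvd_natCard _ hx) (rIn_coprime q M))
      have := pow_gcd_eq_one.mpr ⟨h0, hj'⟩
      rwa [hcop.gcd_eq_one, pow_one] at this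
    have hyx : y * x * y⁻¹ = (b' : G) * x := by
      have := congrArg Subtype.val he
      rw [ha1, one_mul] at this
      exact this
    have hit : ∀ i : ℕ, y ^ i * x * (y ^ i)⁻¹ = (b' : G) ^ i * x := by
      intro i
      induction i with
      | zero => simp
      | succ i ih =>
        have hb2 : y * (b' : G) ^ i = (b' : G) ^ i * y := (Commute.pow_right (show Commute y (b' : G) from hbY) i).eq
        calc y ^ (i + 1) * x * (y ^ (i + 1))⁻¹ = y * (y ^ i * x * (y ^ i)⁻¹) * y⁻¹ := by rw [pow_succ']; group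
          _ = y * (b' : G) ^ i * x * y⁻¹ := by rw [ih]; group
          _ = (b' : G) ^ i * (y * x * y⁻¹) := by rw [hb2]; group
          _ = (b' : G) ^ (i + 1) * x := by rw [hyx, pow_succ]; group
    have hb1 : (b' : G) = 1 := by
      have h := hit (q ^ k)
      rw [hk, one_mul, inv_one, mul_one] at h
      have h0 : (b' : G) ^ q ^ k = 1 := right_eq_mul.mp h
      have hbc : (orderOf (b' : G)).Coprime (q ^ k) := by
        refine Nat.Coprime.pow_right _ (Nat.Coprime.coprime_dvd_left ?_ (rIn_coprime q N))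
        exact Subgroup.orderOf_dvd_natCard (rIn q N) ⟨b', hb', rfl⟩
      have := pow_gcd_eq_one.mpr ⟨pow_orderOf_eq_one (b' : G), h0⟩
      rwa [hbc.gcd_eq_one, pow_one] at this
    rw [hb1, one_mul] at hyx
    calc x * y = y * x * y⁻¹ * y := by rw [hyx]
      _ = y * x := by group
  have hKM : pElems q Y ≤ M :=
    ((le_inf ((pElems_le q Y).trans inf_le_left) (hgen.trans (Subgroup.centralizer_le_normalizer _))).trans
      (hP _ hR (le_inf hRM hRN) (le_normalizer_rIn q M)).le).trans inf_le_left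
  have hQK : pCoreIn q M ≤ pElems q Y := fun x hx => by
    obtain ⟨k, hk⟩ := pCoreIn_isPGroup q M ⟨x, hx⟩
    exact mem_pElems (hQY hx) (congrArg Subtype.val hk)
  have hKN : pElems q Y ≤ N := (pElems_le q Y).trans inf_le_left
  have hnK : N ≤ Subgroup.normalizer (pElems q Y : Set G) := fun g hg => pElems_normalized (hnY hg)
  refine (le_pCoreIn hQK (hKM.trans (le_normalizer_pCoreIn q M)) (pCoreIn_isPGroup q M)).trans ?_
  exact le_pCoreIn ((pCoreIn_le q _).trans hKN) (hnK.trans (normalizer_le_normalizer_pCoreIn q _))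
    (pCoreIn_isPGroup q _)

theorem eq_bot_of_gfit_eq_bot {M : Subgroup G} (hF : generalizedFittingSubgroup ↥M = ⊥) : M = ⊥ := by
  have hc := centralizer_generalizedFittingSubgroup_le (G := ↥M)
  rw [hF] at hc
  rw [eq_bot_iff]
  intro x hx
  have := hc (x := ⟨x, hx⟩) (Subgroup.mem_centralizer_iff.mpr fun y hy => by
    rw [Subgroup.mem_bot.mp hy, one_mul, mul_one])
  exact Subgroup.mem_bot.mpr (congrArg Subtype.val (Subgroup.mem_bot.mp this))

/-- Bender's theorem on primitive pairs. -/
theorem pair_char {M N : Subgroup G} (hMN : M ≠ N)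
    (hPM : ∀ A : Subgroup G, A ≠ ⊥ → A ≤ M ⊓ N → M ≤ Subgroup.normalizer (A : Set G) →
      N ⊓ Subgroup.normalizer (A : Set G) = M ⊓ N)
    (hPN : ∀ A : Subgroup G, A ≠ ⊥ → A ≤ N ⊓ M → N ≤ Subgroup.normalizer (A : Set G) →
      M ⊓ Subgroup.normalizer (A : Set G) = N ⊓ M)
    (h1 : (generalizedFittingSubgroup ↥M).map M.subtype ≤ N)
    (h2 : (generalizedFittingSubgroup ↥N).map N.subtype ≤ M) :
    ∃ p : ℕ, p.Prime ∧ generalizedFittingSubgroup ↥M = pCore p ↥M ∧
      generalizedFittingSubgroup ↥N = pCore p ↥N := by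
  rw [gfit_map] at h1 h2
  have hcommon : ∀ X : Subgroup G, X ≠ ⊥ → X ≤ M → X ≤ N → M ≤ Subgroup.normalizer (X : Set G) →
      N ≤ Subgroup.normalizer (X : Set G) → False := by
    intro X hX hXM hXN hnM hnN
    have e1 := hPM X hX (le_inf hXM hXN) hnM
    have e2 := hPN X hX (le_inf hXN hXM) hnN
    rw [inf_eq_left.mpr hnN] at e1
    rw [inf_eq_left.mpr hnM] at e2
    exact hMN (le_antisymm (e2.le.trans inf_le_left) (e1.le.trans inf_le_left))
  have hEq := le_antisymm (eIn_le h1 h2) (eIn_le h2 h1)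
  have hEM : layer ↥M = ⊥ := by
    rw [← Subgroup.map_eq_bot_iff_of_injective _ M.subtype_injective]
    by_contra hne
    exact hcommon (eIn M) hne (Subgroup.map_subtype_le _) (le_sup_left.trans h1) (le_normalizer_eIn M)
      (show N ≤ Subgroup.normalizer (eIn M : Set G) by rw [hEq]; exact le_normalizer_eIn N)
  have hEN : layer ↥N = ⊥ := by
    rw [← Subgroup.map_eq_bot_iff_of_injective _ N.subtype_injective]
    show eIn N = ⊥
    rw [← hEq, eIn, hEM, Subgroup.map_bot]
  have h1' : fIn M ≤ N := le_sup_right.trans h1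
  have h2' : fIn N ≤ M := le_sup_right.trans h2
  have hFne : fittingSubgroup ↥M ≠ ⊥ := by
    intro hbot
    have hM0 : M = ⊥ := eq_bot_of_gfit_eq_bot (by rw [generalizedFittingSubgroup, hEM, hbot, sup_bot_eq])
    refine hMN (hM0.trans (eq_bot_of_gfit_eq_bot ?_).symm)
    rw [← Subgroup.map_eq_bot_iff_of_injective _ N.subtype_injective, gfit_map, eq_bot_iff, ← hM0]
    exact h2
  obtain ⟨r, hr⟩ : ∃ r : (Nat.card ↥M).primeFactors, pCore r ↥M ≠ ⊥ := by
    by_contra hall
    refine hFne ?_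
    rw [fittingSubgroup_eq_iSup, iSup_eq_bot]
    exact fun r => by_contra fun h => hall ⟨r, h⟩
  haveI hrp : Fact (r : ℕ).Prime := ⟨Nat.prime_of_mem_primeFactors r.2⟩
  have key : ∀ X : Subgroup G, layer ↥X = ⊥ → rIn r X = ⊥ → generalizedFittingSubgroup ↥X = pCore r ↥X := by
    intro X hX hR
    rw [generalizedFittingSubgroup, hX, bot_sup_eq]
    have h := fIn_eq_sup (r : ℕ) X
    rw [hR, sup_bot_eq, fIn, pCoreIn] at h
    exact Subgroup.map_injective X.subtype_injective h
  by_cases hR : rIn r M = ⊥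
  · exact ⟨r, hrp.out, key M hEM hR, key N hEN (isPGroup_fIn_of_rIn_eq_bot r hEM h1' h2' hR)⟩
  exfalso
  have hR' : rIn r N ≠ ⊥ := fun h => hR (isPGroup_fIn_of_rIn_eq_bot r hEN h2' h1' h)
  have hQ := le_antisymm (pCoreIn_le_pCoreIn (r : ℕ) hPM hEN h1' h2' hR) (pCoreIn_le_pCoreIn (r : ℕ) hPN hEM h2' h1' hR')
  exact hcommon (pCoreIn r M) (fun h => hr ((Subgroup.map_eq_bot_iff_of_injective _ M.subtype_injective).mp h))
    (pCoreIn_le _ M) ((pCoreIn_le_fIn _ M).trans h1') (le_normalizer_pCoreIn _ M)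
    (by rw [hQ]; exact le_normalizer_pCoreIn _ N)

end CfsgLib.Components.PrimitivePair
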